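import Mathlib
import Cfsg.Agent.Lib.Helper86.IP.Defs

/-!
# S4463 team project, package [NON]: `LemK` and `LemNon` (pure group theory)
-/

set_option autoImplicit false

namespace Cfsg.Agent.Lib.Helper63.IP

universe u

open scoped commutatorElement

/-- Existence of a normal subgroup `K`, maximal with `commutator X ≰ K`. -/
theorem lemK : Cfsg.Agent.Lib.Helper86.IP.LemK.{u} := by
  intro X _ _ hnab
  classical
  -- the set of normal subgroups not containing the commutator subgroup
  have hfin : (Set.univ : Set (Subgroup X)).Finite := Set.toFinite _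
  let S : Set (Subgroup X) := {K | K.Normal ∧ ¬ commutator X ≤ K}
  have hbot : (⊥ : Subgroup X) ∈ S := by
    refine ⟨inferInstance, ?_⟩
    intro hle
    apply hnab
    intro x y
    have h1 : ⁅x, y⁆ ∈ commutator X := by
      rw [commutator_def]
      exact Subgroup.commutator_mem_commutator (Subgroup.mem_top x) (Subgroup.mem_top y)
    have h2 : ⁅x, y⁆ = 1 := by
      have := hle h1
      simpa using this
    rw [commutatorElement_def] at h2
    calc x * y = (x * y * x⁻¹ * y⁻¹) * (y * x) := by group
      _ = y * x := by rw [h2, one_mul]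
  obtain ⟨K, hKS, hKmax⟩ := (Set.Finite.subset hfin (Set.subset_univ S)).exists_maximal ⟨⊥, hbot⟩
  obtain ⟨hKn, hKc⟩ := hKS
  refine ⟨K, hKn, ?_, ?_⟩
  · intro hab
    apply hKc
    rw [commutator_def, Subgroup.commutator_le]
    intro a _ b _
    have h1 := hab (QuotientGroup.mk a) (QuotientGroup.mk b)
    have h2 : ((⁅a, b⁆ : X) : X ⧸ K) = 1 := by
      rw [commutatorElement_def]
      have : ((a * b * a⁻¹ * b⁻¹ : X) : X ⧸ K)
          = (a : X ⧸ K) * (b : X ⧸ K) * (a : X ⧸ K)⁻¹ * (b : X ⧸ K)⁻¹ := by
        simp
      rw [this, h1]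
      group
    exact (QuotientGroup.eq_one_iff _).mp h2
  · intro N hN hNne
    let L : Subgroup X := N.comap (QuotientGroup.mk' K)
    have hLn : L.Normal := Subgroup.Normal.comap hN _
    have hKL : K ≤ L := by
      intro k hk
      change (QuotientGroup.mk' K k) ∈ N
      have : (QuotientGroup.mk' K k) = 1 := by
        simpa using (QuotientGroup.eq_one_iff k).mpr hk
      rw [this]
      exact N.one_mem
    have hcL : commutator X ≤ L := by
      by_contra hc
      have hLS : L ∈ S := ⟨hLn, hc⟩
      have hLK : L ≤ K := hKmax hLS hKL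
      apply hNne
      rw [Subgroup.eq_bot_iff_forall]
      intro n hn
      obtain ⟨x, rfl⟩ := QuotientGroup.mk_surjective n
      have hxL : x ∈ L := hn
      exact (QuotientGroup.eq_one_iff x).mpr (hLK hxL)
    rw [commutator_def, Subgroup.commutator_le]
    intro a _ b _
    obtain ⟨x, rfl⟩ := QuotientGroup.mk_surjective a
    obtain ⟨y, rfl⟩ := QuotientGroup.mk_surjective b
    have h1 : ⁅x, y⁆ ∈ commutator X := by
      rw [commutator_def]
      exact Subgroup.commutator_mem_commutator (Subgroup.mem_top x) (Subgroup.mem_top y)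
    have h2 : ⁅x, y⁆ ∈ L := hcL h1
    have h3 : (QuotientGroup.mk' K ⁅x, y⁆) ∈ N := h2
    have h4 : (QuotientGroup.mk' K ⁅x, y⁆) = ⁅(x : X ⧸ K), (y : X ⧸ K)⁆ := by
      rw [commutatorElement_def, commutatorElement_def]
      simp
    rw [← h4]
    exact h3

/-- Case II with nonabelian commutator subgroup. -/
theorem lemNon : Cfsg.Agent.Lib.Helper86.IP.LemNon.{u} := by
  intro Q _ _ hmin hnab
  classical
  set V : Subgroup Q := commutator Q with hV
  have hVn : V.Normal := by
    rw [hV, commutator_def]; infer_instance
  have hVV : V ≤ ⁅V, V⁆ := by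
    apply hmin ⁅V, V⁆ inferInstance
    intro hbot
    apply hnab
    intro x hx y hy
    have h1 : ⁅x, y⁆ ∈ ⁅V, V⁆ := Subgroup.commutator_mem_commutator hx hy
    rw [hbot, Subgroup.mem_bot, commutatorElement_def] at h1
    calc x * y = (x * y * x⁻¹ * y⁻¹) * (y * x) := by group
      _ = y * x := by rw [h1, one_mul]
  refine ⟨?_, ?_⟩
  · intro hsolv
    obtain ⟨n, hn⟩ := (Group.isSolvable_def Q).mp hsolv
    have key : ∀ m : ℕ, V ≤ derivedSeries Q m := by
      intro m
      induction m with
      | zero => rw [derivedSeries_zero]; exact le_top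
      | succ m ih =>
        rw [derivedSeries_succ]
        exact le_trans hVV (Subgroup.commutator_mono ih ih)
    have hVbot : V = ⊥ := by
      have := key n
      rw [hn] at this
      exact le_bot_iff.mp this
    apply hnab
    intro x hx y hy
    rw [hVbot, Subgroup.mem_bot] at hx hy
    rw [hx, hy]
  · intro g hg
    by_contra hne
    have h1 : V ≤ (Subgroup.centralizer {g}).normalCore :=
      hmin _ inferInstance hne
    have h2 : V ≤ Subgroup.centralizer {g} := le_trans h1 (Subgroup.normalCore_le _)
    -- g centralizes V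
    have hgC : g ∈ Subgroup.centralizer (V : Set Q) := by
      rw [Subgroup.mem_centralizer_iff]
      intro v hv
      have := h2 hv
      rw [Subgroup.mem_centralizer_iff] at this
      exact (this g (Set.mem_singleton g)).symm
    have hCn : (Subgroup.centralizer (V : Set Q)).Normal := inferInstance
    have hCne : Subgroup.centralizer (V : Set Q) ≠ ⊥ := by
      intro hbot
      rw [hbot, Subgroup.mem_bot] at hgC
      exact hg hgC
    have h3 : V ≤ Subgroup.centralizer (V : Set Q) := hmin _ hCn hCne
    apply hnab
    intro x hx y hy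
    have := h3 hy
    rw [Subgroup.mem_centralizer_iff] at this
    exact this x hx

end Cfsg.Agent.Lib.Helper63.IP
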